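import Mathlib

/-! O'Nan's theorem on the socle of a point stabiliser (S3354): vocabulary
(see blueprint/ON2/README.md). -/

set_option autoImplicit false

namespace H98.ON2

open Subgroup

section grp

variable {G : Type*} [Group G]

/-- The conjugate `g K g⁻¹`. -/
def cj (g : G) (K : Subgroup G) : Subgroup G := K.map (MulAut.conj g).toMonoidHom

theorem mem_cj {g a : G} {K : Subgroup G} : a ∈ cj g K ↔ g⁻¹ * a * g ∈ K := by
  constructor
  · rintro ⟨b, hb, rfl⟩
    simpa [mul_assoc] using hb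
  · intro h
    exact ⟨_, h, by simp [mul_assoc]⟩

theorem cj_mem {g a : G} {K : Subgroup G} (h : a ∈ K) : g * a * g⁻¹ ∈ cj g K :=
  mem_cj.2 (by simpa [mul_assoc] using h)

theorem cj_mem_iff {g a : G} {K : Subgroup G} : g * a * g⁻¹ ∈ cj g K ↔ a ∈ K := by
  rw [mem_cj]; simp [mul_assoc]

@[simp] theorem cj_one (K : Subgroup G) : cj 1 K = K := by
  ext a; simp [mem_cj]

theorem cj_mul (g h : G) (K : Subgroup G) : cj (g * h) K = cj g (cj h K) := by
  ext a; simp [mem_cj, mul_assoc]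

@[simp] theorem cj_inv_cj (g : G) (K : Subgroup G) : cj g⁻¹ (cj g K) = K := by
  rw [← cj_mul]; simp

@[simp] theorem cj_cj_inv (g : G) (K : Subgroup G) : cj g (cj g⁻¹ K) = K := by
  rw [← cj_mul]; simp

theorem cj_inj {g : G} {K L : Subgroup G} : cj g K = cj g L ↔ K = L :=
  ⟨fun h => by simpa using congrArg (cj g⁻¹) h, fun h => h ▸ rfl⟩

theorem cj_inf (g : G) (K L : Subgroup G) : cj g (K ⊓ L) = cj g K ⊓ cj g L := by
  ext a; simp [mem_cj]

theorem cj_le_cj {g : G} {K L : Subgroup G} : cj g K ≤ cj g L ↔ K ≤ L :=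
  ⟨fun h _ ha => cj_mem_iff.1 (h (cj_mem ha)), fun h _ ha => mem_cj.2 (h (mem_cj.1 ha))⟩

@[simp] theorem cj_bot (g : G) : cj g (⊥ : Subgroup G) = ⊥ := map_bot _

theorem card_cj (g : G) (K : Subgroup G) : Nat.card (cj g K) = Nat.card K :=
  card_map_of_injective (MulAut.conj g).injective

theorem relIndex_cj (g : G) (K L : Subgroup G) :
    (cj g K).relIndex (cj g L) = K.relIndex L :=
  relIndex_map_map_of_injective K L (MulAut.conj g).injective

theorem mem_norm {g : G} {K : Subgroup G} : g ∈ normalizer (K : Set G) ↔ cj g K = K := by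
  rw [mem_normalizer_iff'']
  constructor
  · intro h; ext a; rw [mem_cj]; exact (h a).symm
  · intro h a; rw [← mem_cj, h]

theorem conj_mem {g a : G} {K : Subgroup G} (h : cj g K = K) (ha : a ∈ K) :
    g * a * g⁻¹ ∈ K := h ▸ cj_mem ha

theorem cj_inv_eq {g : G} {K L : Subgroup G} (h : cj g K = L) : cj g⁻¹ L = K := by
  rw [← h, cj_inv_cj]

theorem cj_self {g : G} {K : Subgroup G} (h : g ∈ K) : cj g K = K :=
  mem_norm.1 (le_normalizer h)

theorem cj_eq_of_le [Finite G] {g : G} {K : Subgroup G} (h : ∀ a ∈ K, g * a * g⁻¹ ∈ K) :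
    cj g K = K :=
  eq_of_le_of_card_ge (by rintro _ ⟨a, ha, rfl⟩; exact h a ha) (card_cj g K).ge

theorem cj_eq_of_comm {g : G} {K : Subgroup G} (h : ∀ a ∈ K, g * a = a * g) : cj g K = K := by
  ext a
  rw [mem_cj]
  constructor
  · intro ha
    have := h _ ha
    have e : a = g⁻¹ * a * g := by
      calc a = g * (g⁻¹ * a * g) * g⁻¹ := by group
        _ = g⁻¹ * a * g := by rw [this]; group
    exact e ▸ ha
  · intro ha
    have e : g⁻¹ * a * g = a := by rw [mul_assoc, ← h a ha]; group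
    rwa [e]

/-- `U A B = A ∩ N_G(B)`. -/
def U (A B : Subgroup G) : Subgroup G := A ⊓ normalizer (B : Set G)

theorem mem_U {A B : Subgroup G} {a : G} : a ∈ U A B ↔ a ∈ A ∧ cj a B = B := by
  rw [U, mem_inf, mem_norm]

theorem U_le (A B : Subgroup G) : U A B ≤ A := inf_le_left

theorem cj_U (g : G) (A B : Subgroup G) : cj g (U A B) = U (cj g A) (cj g B) := by
  ext a
  rw [mem_cj, mem_U, mem_U, mem_cj, cj_mul, cj_mul]
  refine and_congr_right fun _ => ⟨fun h => ?_, fun h => ?_⟩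
  · simpa using congrArg (cj g) h
  · rw [h, cj_inv_cj]

/-- An involution. -/
def Inv (t : G) : Prop := t ≠ 1 ∧ t * t = 1

/-- A non-abelian simple subgroup. -/
structure Sim (K : Subgroup G) : Prop where
  nab : ∃ a ∈ K, ∃ b ∈ K, a * b ≠ b * a
  simp : ∀ M ≤ K, (∀ k ∈ K, ∀ m ∈ M, k * m * k⁻¹ ∈ M) → M = ⊥ ∨ M = K

/-- A non-trivial perfect subgroup with trivial centre and trivial odd core. -/
structure Ss (K : Subgroup G) : Prop where
  ne : K ≠ ⊥
  perf : ⁅K, K⁆ = K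
  zc : ∀ z ∈ K, (∀ a ∈ K, z * a = a * z) → z = 1
  noodd : ∀ O ≤ K, (∀ k ∈ K, ∀ m ∈ O, k * m * k⁻¹ ∈ O) → Odd (Nat.card O) → O = ⊥

end grp

/-- A conjugacy class of T.I. subgroups, each minimal normal in its normaliser. -/
structure Ti (G : Type*) [Group G] where
  K : Set (Subgroup G)
  cjm : ∀ (g : G) {A : Subgroup G}, A ∈ K → cj g A ∈ K
  tr : ∀ {A B : Subgroup G}, A ∈ K → B ∈ K → ∃ g : G, cj g A = B
  ti : ∀ {A B : Subgroup G} {a : G}, A ∈ K → B ∈ K → a ∈ A → a ∈ B → a ≠ 1 → A = B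
  ss : ∀ {A : Subgroup G}, A ∈ K → Ss A
  minn : ∀ {A : Subgroup G}, A ∈ K → ∀ M ≤ A,
    (∀ g : G, cj g A = A → ∀ m ∈ M, g * m * g⁻¹ ∈ M) → M = ⊥ ∨ M = A

/-- A Sylow pair: `A ∩ N(B)` is proper of odd index in `A`. -/
structure Ti.Sy {G : Type*} [Group G] (T : Ti G) (A B : Subgroup G) : Prop where
  memA : A ∈ T.K
  memB : B ∈ T.K
  ne : A ≠ B
  prop : U A B ≠ A
  odd : Odd ((U A B).relIndex A)

/-- A faithful doubly transitive action on at least two points. -/
structure Tr (G X : Type*) [Group G] [MulAction G X] : Prop where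
  two : ∀ {x y u v : X}, x ≠ y → u ≠ v → ∃ g : G, g • x = u ∧ g • y = v
  faith : ∀ {g : G}, (∀ x : X, g • x = x) → g = 1
  nt : ∃ x y : X, x ≠ y

/-- An invariant linear space on which `M x` acts as a group of collineations with centre `x`. -/
structure Ln (G X : Type*) [Group G] [MulAction G X] where
  l : X → X → Set X
  M : X → Subgroup G
  left : ∀ {x y : X}, x ≠ y → x ∈ l x y
  right : ∀ {x y : X}, x ≠ y → y ∈ l x y
  eq : ∀ {x y u v : X}, x ≠ y → u ∈ l x y → v ∈ l x y → u ≠ v → l u v = l x y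
  smul : ∀ (g : G) {x y z : X}, x ≠ y → z ∈ l x y → g • z ∈ l (g • x) (g • y)
  prop : ∀ {x y : X}, x ≠ y → ∃ z, z ∉ l x y
  fix : ∀ {x : X} {m : G}, m ∈ M x → m • x = x
  inv : ∀ {x y z : X} {m : G}, x ≠ y → m ∈ M x → z ∈ l x y → m • z ∈ l x y
  cjM : ∀ (g : G) (x : X), cj g (M x) = M (g • x)
  ne : ∀ x : X, M x ≠ ⊥

/-- `N x` is a non-abelian minimal normal subgroup of the point stabiliser `G_x`. -/
structure Mn (G X : Type*) [Group G] [MulAction G X] where
  tr : Tr G X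
  N : X → Subgroup G
  fix : ∀ {x : X} {n : G}, n ∈ N x → n • x = x
  cjN : ∀ (g : G) (x : X), cj g (N x) = N (g • x)
  ss : ∀ x : X, Ss (N x)
  minn : ∀ (x : X), ∀ M ≤ N x, (∀ g : G, g • x = x → ∀ m ∈ M, g * m * g⁻¹ ∈ M) →
    M = ⊥ ∨ M = N x

/-- `N x` is the socle of `G_x`, the direct product of at least two components `K ∈ Cp x`. -/
structure Cs (G X : Type*) [Group G] [MulAction G X] where
  tr : Tr G X
  N : X → Subgroup G
  Cp : X → Set (Subgroup G)
  fix : ∀ {x : X} {n : G}, n ∈ N x → n • x = x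
  cjN : ∀ (g : G) (x : X), cj g (N x) = N (g • x)
  cjC : ∀ (g : G) {x : X} {K : Subgroup G}, K ∈ Cp x → cj g K ∈ Cp (g • x)
  trC : ∀ {x : X} {K L : Subgroup G}, K ∈ Cp x → L ∈ Cp x → ∃ g : G, g • x = x ∧ cj g K = L
  sim : ∀ {x : X} {K : Subgroup G}, K ∈ Cp x → Sim K
  comm : ∀ {x : X} {K L : Subgroup G}, K ∈ Cp x → L ∈ Cp x → K ≠ L →
    ∀ a ∈ K, ∀ b ∈ L, a * b = b * a
  gen : ∀ x : X, N x = ⨆ K ∈ Cp x, K
  two_c : ∀ x : X, ∃ K ∈ Cp x, ∃ L ∈ Cp x, K ≠ L
  cen : ∀ {x : X} {g : G}, g • x = x → (∀ K ∈ Cp x, ∀ k ∈ K, g * k = k * g) → g = 1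
  dne : ∀ {x y : X}, x ≠ y → ∃ d : G, d ≠ 1 ∧ d ∈ N x ∧ d ∈ N y

namespace Cs

variable {G X : Type*} [Group G] [MulAction G X] (C : Cs G X)

/-- A component has only one base point. -/
def Ub : Prop := ∀ {x y : X} {K : Subgroup G}, K ∈ C.Cp x → K ∈ C.Cp y → x = y

/-- A component fixes only its base point. -/
def C0 : Prop := ∀ {x y : X} {K : Subgroup G}, K ∈ C.Cp x → (∀ k ∈ K, k • y = y) → y = x

/-- Distinct components meet trivially. -/
def TI : Prop := ∀ {x y : X} {K L : Subgroup G} {a : G}, K ∈ C.Cp x → L ∈ C.Cp y →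
  a ∈ K → a ∈ L → a ≠ 1 → K = L

/-- An involution of a component fixes only the base point. -/
def HA : Prop := ∀ {x y : X} {K : Subgroup G} {t : G}, K ∈ C.Cp x → t ∈ K → Inv t →
  t • y = y → y = x

/-- `w` is the product of involutions of two distinct components at `x`. -/
def S2 (x : X) (w : G) : Prop :=
  ∃ K ∈ C.Cp x, ∃ L ∈ C.Cp x, K ≠ L ∧ ∃ s ∈ K, ∃ t ∈ L, Inv s ∧ Inv t ∧ w = s * t

/-- The components at `x` and `y` meet in a subgroup of order `m`. -/
structure Ed (m : ℕ) (x y : X) (K L : Subgroup G) : Prop where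
  left : K ∈ C.Cp x
  right : L ∈ C.Cp y
  ne : K ≠ L
  card : Nat.card ↥(K ⊓ L) = m

/-- `m > 1` is the largest order of the intersection of two distinct components. -/
structure Mx (m : ℕ) : Prop where
  gt : 1 < m
  le : ∀ {x y : X} {K L : Subgroup G}, K ∈ C.Cp x → L ∈ C.Cp y → K ≠ L →
    Nat.card ↥(K ⊓ L) ≤ m
  ex : ∃ (x y : X) (K L : Subgroup G), C.Ed m x y K L

/-- The points with a component containing `W`. -/
def F (W : Subgroup G) : Set X := {z | ∃ K ∈ C.Cp z, W ≤ K}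

end Cs

end H98.ON2
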